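import Mathlib
import Cfsg.Agent.Supersolv.SystemNormalizer
import Cfsg.Agent.Lib.MinimalNormal
import Cfsg.Agent.SolvStruct.Nilpotent
import Cfsg.Agent.Cores.Fitting

/-!
System normalizers avoid eccentric minimal normal subgroups and contain the centre.
-/

set_option autoImplicit false
set_option linter.style.haveILetI false

namespace Cfsg.Agent.SolvStruct

open Subgroup
open scoped Pointwise commutatorElement

variable {X : Type*} [Group X] [Finite X]

theorem center_le_systemNormalizer (K : Nat.Primes → Subgroup X) :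
    center X ≤ Cfsg.systemNormalizer K := by
  refine le_iInf fun q z hz => mem_normalizer_iff''.2 fun x => ?_
  rw [mul_assoc, mem_center_iff.1 hz x, inv_mul_cancel_left]

theorem inf_systemNormalizer_eq_bot [Group.IsSolvable X] {K : Nat.Primes → Subgroup X}
    (hK : Cfsg.IsComplementSystem K) (N : Subgroup X) [N.Normal] (hne : N ≠ ⊥)
    (hmin : ∀ M : Subgroup X, M.Normal → M ≤ N → M = ⊥ ∨ M = N) (hnc : ¬ N ≤ center X) :
    N ⊓ Cfsg.systemNormalizer K = ⊥ := by
  obtain ⟨hNc, p, hp, -, hNp⟩ := MinNormal.elementary_abelian' N hne hmin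
  haveI : Fact p.Prime := ⟨hp⟩
  have hcop : (Nat.card N).Coprime (Nat.card (K ⟨p, hp⟩)) := by
    obtain ⟨i, hi⟩ := IsPGroup.iff_card.1 hNp
    rw [hi]
    exact ((Nat.Prime.coprime_iff_not_dvd hp).2 (SysNorm.card_not_dvd hK ⟨p, hp⟩)).pow_left i
  set Kp := K ⟨p, hp⟩ with hKp
  have h1 : ∀ n ∈ N ⊓ Cfsg.systemNormalizer K, ∀ k ∈ Kp, k * n = n * k := by
    intro n hn k hk
    have hnK : n ∈ normalizer (Kp : Set X) := (mem_iInf.1 hn.2) _
    have hmem : n * k * n⁻¹ * k⁻¹ ∈ N ⊓ Kp := by
      refine ⟨?_, Kp.mul_mem ((mem_normalizer_iff.1 hnK k).1 hk) (Kp.inv_mem hk)⟩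
      rw [mul_assoc, mul_assoc, ← mul_assoc k]
      exact N.mul_mem hn.1 (‹N.Normal›.conj_mem _ (N.inv_mem hn.1) k)
    rw [Subgroup.inf_eq_bot_of_coprime hcop, mem_bot, ← commutatorElement_def,
      commutatorElement_eq_one_iff_mul_comm] at hmem
    exact hmem.symm
  set C := centralizer (N : Set X) with hC
  haveI hCn : C.Normal := normal_centralizer
  have hCne : C ≠ ⊤ := by
    intro h
    refine hnc fun n hn => mem_center_iff.2 fun x => ?_
    exact (mem_centralizer_iff.1 (h ▸ mem_top x : x ∈ C) n hn).symm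
  haveI : Nontrivial (X ⧸ C) := (one_lt_index_of_ne_top hCne |> fun h => by
      rw [index_eq_card] at h
      exact Finite.one_lt_card_iff_nontrivial.1 h)
  obtain ⟨Mb, hMbn, hMbne, -, -, r, hr, -, hMr⟩ := MinNormal.exists_elementary_abelian (G := X ⧸ C)
  haveI : Fact r.Prime := ⟨hr⟩
  haveI := hMbn
  set f := QuotientGroup.mk' C with hf
  set M := Mb.comap f with hM
  haveI hMn : M.Normal := hMbn.comap f
  have hMC : ¬ M ≤ C := by
    intro h
    refine hMbne ?_
    rw [← map_comap_eq_self_of_surjective (QuotientGroup.mk'_surjective C) Mb, ← hf, ← hM,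
      Subgroup.map_eq_bot_iff, QuotientGroup.ker_mk']
    exact h
  have hW : N ⊓ centralizer (M : Set X) = ⊥ := by
    refine (hmin _ inferInstance inf_le_left).resolve_right fun h => hMC ?_
    exact le_centralizer_iff.1 (inf_eq_left.1 h)
  by_cases hrp : r = p
  · exfalso
    subst hrp
    obtain ⟨S⟩ : Nonempty (Sylow r M) := inferInstance
    set S' := (S : Subgroup M).map M.subtype with hS'
    have hgen : M ≤ C ⊔ S' := by
      rw [← subgroupOf_eq_top]
      refine Cores.eq_top_of_forall_sylow_le _ fun q hq => ?_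
      haveI : Fact q.Prime := ⟨hq⟩
      by_cases hqr : q = r
      · subst hqr
        exact ⟨S, fun x hx => mem_sup_right (S := C) ⟨x, hx, rfl⟩⟩
      · obtain ⟨Q⟩ : Nonempty (Sylow q M) := inferInstance
        refine ⟨Q, fun x hx => mem_sup_left (T := S') ?_⟩
        rw [← QuotientGroup.eq_one_iff]
        obtain ⟨i, hi⟩ := IsPGroup.iff_orderOf.1 Q.isPGroup' ⟨x, hx⟩
        obtain ⟨j, hj⟩ := IsPGroup.iff_orderOf.1 hMr ⟨f (x : X), (show f (x : X) ∈ Mb from x.2)⟩
        rw [Subgroup.orderOf_mk] at hi hj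
        rw [← orderOf_coe] at hi
        have := orderOf_map_dvd f (x : X)
        rw [hi, hj] at this
        have hj0 : r ^ j = 1 := Nat.eq_one_of_dvd_coprimes
          (((Nat.coprime_primes hr hq).2 (Ne.symm hqr)).pow j i) dvd_rfl this
        rw [hj0, orderOf_eq_one_iff] at hj
        exact hj
    have hR : IsPGroup r (N ⊔ S' : Subgroup X) := hNp.to_sup_of_normal_left (S.isPGroup'.map _)
    haveI : Group.IsNilpotent (N ⊔ S' : Subgroup X) := hR.isNilpotent
    obtain ⟨z, hz, hz1⟩ := SetLike.exists_of_lt (bot_lt_iff_ne_bot.2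
      (nilpotent_inf_center_ne_bot (G := (N ⊔ S' : Subgroup X)) (N.subgroupOf (N ⊔ S')) (by
        rw [Ne, subgroupOf_eq_bot, disjoint_iff, inf_eq_left.2 le_sup_left]
        exact hne)))
    have hzW : (z : X) ∈ N ⊓ centralizer (M : Set X) := by
      refine ⟨hz.1, mem_centralizer_iff.2 fun y hy => ?_⟩
      have : C ⊔ S' ≤ centralizer ({(z : X)} : Set X) := by
        refine sup_le (fun c hc => mem_centralizer_singleton_iff.2 ?_)
          (fun c hc => mem_centralizer_singleton_iff.2 ?_)
        · exact (mem_centralizer_iff.1 hc _ hz.1).symm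
        · exact congrArg Subtype.val (mem_center_iff.1 hz.2 ⟨c, mem_sup_right hc⟩)
      exact mem_centralizer_singleton_iff.1 (this (hgen hy))
    rw [hW, mem_bot] at hzW
    exact hz1 (mem_bot.2 (Subtype.ext hzW))
  have hle : M ≤ C ⊔ Kp := by
    have hMb : Mb ≤ Kp.map f := by
      have h1' : Nat.card ↥(Kp.map f ⊔ Mb) ∣ Nat.card (Kp.map f) * Nat.card Mb :=
        Cores.card_sup_dvd_mul _ _
      have h2' : Nat.card ↥(Kp.map f ⊔ Mb) ∣ Nat.card (Kp.map f) * (Kp.map f).index :=
        (Kp.map f).card_mul_index.symm ▸ card_subgroup_dvd_card _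
      have hc : (Nat.card Mb).Coprime (Kp.map f).index := by
        obtain ⟨i, hi⟩ := IsPGroup.iff_card.1 hMr
        rw [hi]
        refine Nat.Coprime.coprime_dvd_right (index_map_dvd _ (QuotientGroup.mk'_surjective C)) ?_
        rw [hKp, hK ⟨p, hp⟩]
        exact ((Nat.coprime_primes hr hp).2 hrp).pow _ _
      have h3 := Nat.dvd_gcd h1' h2'
      rw [Nat.gcd_mul_left, hc.gcd_eq_one, mul_one] at h3
      exact le_sup_right.trans
        (Subgroup.eq_of_le_of_card_ge le_sup_left (Nat.le_of_dvd Nat.card_pos h3)).ge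
    have := comap_mono (f := f) hMb
    rwa [← hM, hf, QuotientGroup.comap_map_mk'] at this
  refine le_bot_iff.1 (hW ▸ fun n hn => ⟨hn.1, mem_centralizer_iff.2 fun y hy => ?_⟩)
  have : C ⊔ Kp ≤ centralizer ({n} : Set X) :=
    sup_le (fun c hc => mem_centralizer_singleton_iff.2 (mem_centralizer_iff.1 hc _ hn.1).symm)
      (fun c hc => mem_centralizer_singleton_iff.2 (h1 n hn c hc))
  exact mem_centralizer_singleton_iff.1 (this (hle hy))

end Cfsg.Agent.SolvStruct
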