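import Mathlib
import Cfsg.Agent.Supersolv.SystemNormalizer
import Cfsg.Agent.Lib.Carter
import Cfsg.Agent.Lib.MinimalNormal
import Cfsg.Agent.SolvStruct.NilHall
import Cfsg.Agent.SolvStruct.Products
import Cfsg.Agent.Cores.Basic

/-!
System normalizers and Carter subgroups.
-/

set_option autoImplicit false
set_option linter.style.haveILetI false

namespace Cfsg.Agent.SolvStruct

open Subgroup
open scoped Pointwise commutatorElement

universe u

variable {X : Type u} [Group X]

/-- A complement system reducing into a nilpotent subgroup. -/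
def ReducesInto (K : Nat.Primes → Subgroup X) (C : Subgroup X) : Prop :=
  ∀ (p : Nat.Primes), ∀ x ∈ C, (orderOf x).Coprime (p : ℕ) → x ∈ K p

theorem piNum_ne_of_coprime {p : ℕ} {n : ℕ} (h : n.Coprime p) : Hall.PiNum {r | r ≠ p} n :=
  fun r hr hd e => hr.ne_one (Nat.eq_one_of_dvd_coprimes h hd (e ▸ dvd_rfl))

theorem coprime_of_piNum_ne {p : ℕ} (hp : p.Prime) {n : ℕ} (h : Hall.PiNum {r | r ≠ p} n) :
    n.Coprime p :=
  Nat.Coprime.symm ((Nat.Prime.coprime_iff_not_dvd hp).2 fun hd => h p hp hd rfl)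

variable [Finite X]

/-- Elements of a nilpotent group of order prime to `p` lie in its Hall `p'`-subgroup. -/
theorem mem_hallOf_of_coprime {C R : Subgroup X} (hC : Group.IsNilpotent C) {p : ℕ}
    (hR : Cfsg.IsPiHallOf {r | r ≠ p} R C) {x : X} (hx : x ∈ C) (hxp : (orderOf x).Coprime p) :
    x ∈ R := by
  haveI := hC
  have hR' := (Hall.isPiHallOf_iff.1 hR).2
  haveI := Carter.normal_of_isPiHall hR'
  exact Hall.le_of_normal_isPiHall hR' (S := zpowers (⟨x, hx⟩ : C))
    (by rw [Nat.card_zpowers, Subgroup.orderOf_mk]; exact piNum_ne_of_coprime hxp)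
    (mem_zpowers _)

theorem reducesInto_map {K : Nat.Primes → Subgroup X} {C : Subgroup X} (h : ReducesInto K C)
    {Y : Type*} [Group Y] (f : X →* Y) : ReducesInto (fun p => (K p).map f) (C.map f) := by
  intro p y hy hyp
  obtain ⟨c, hc, rfl⟩ := hy
  set j := (orderOf c).factorization p
  have h1 : c ^ ((p : ℕ) ^ j) ∈ K p := by
    refine h p _ (C.pow_mem hc _) ?_
    rw [orderOf_pow_of_dvd (pow_ne_zero _ p.2.ne_zero) (Nat.ordProj_dvd _ _)]
    exact (Nat.coprime_ordCompl p.2 (orderOf_pos c).ne').symm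
  obtain ⟨m, hm⟩ := exists_pow_eq_self_of_coprime (hyp.pow_right j).symm
  show f c ∈ (K p).map f
  rw [← hm, ← map_pow f c]
  exact Subgroup.pow_mem _ (mem_map_of_mem f h1) m

theorem normal_le_hall {π : Set ℕ} {H S : Subgroup X} [S.Normal] (hH : Cfsg.IsPiHall π H)
    (hS : Hall.PiNum π (Nat.card S)) : S ≤ H :=
  le_sup_right.trans (Hall.eq_of_le_of_isPiHall hH
    ((Hall.PiNum.mul hH.1 hS).of_dvd (Cores.card_sup_dvd_mul H S)) le_sup_left).ge

theorem systemNormalizer_le_carter_aux : ∀ n : ℕ, ∀ (X : Type u) [Group X] [Finite X]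
    [Group.IsSolvable X], Nat.card X = n → ∀ (K : Nat.Primes → Subgroup X) (C : Subgroup X),
    Cfsg.IsComplementSystem K → Carter.IsCarter C → ReducesInto K C →
    Cfsg.systemNormalizer K ≤ C := by
  intro n
  induction n using Nat.strong_induction_on with
  | _ n ih =>
  intro X _ _ _ hn K C hK hC hred
  rcases subsingleton_or_nontrivial X with hX | hX
  · exact fun x _ => Subsingleton.elim (1 : X) x ▸ C.one_mem
  obtain ⟨N, hNn, hNne, -, -, p, hp, -, hNp⟩ := MinNormal.exists_elementary_abelian (G := X)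
  haveI := hNn
  haveI : Fact p.Prime := ⟨hp⟩
  set f := QuotientGroup.mk' N with hf
  have hfs : Function.Surjective f := QuotientGroup.mk'_surjective N
  have hlt : Nat.card (X ⧸ N) < n := by
    rw [← hn, Subgroup.card_eq_card_quotient_mul_card_subgroup N]
    exact lt_mul_of_one_lt_right Nat.card_pos (N.one_lt_card_iff_ne_bot.2 hNne)
  have hq := ih _ hlt (X ⧸ N) rfl _ _ (SysNorm.map_isComplementSystem hK hfs)
    (Carter.isCarter_map f hfs (fun L _ A B hA hB => Carter.conj_carter hA hB) hC)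
    (reducesInto_map hred f)
  rw [SysNorm.systemNormalizer_map hK N, map_le_iff_le_comap, QuotientGroup.comap_map_mk'] at hq
  set L := N ⊔ C with hL
  have hCL : C ≤ L := le_sup_right
  set π := {r : ℕ | r ≠ p} with hπ
  haveI hCnil : Group.IsNilpotent C := hC.1
  obtain ⟨R, hR⟩ := Hall.exists_isPiHallOf π C
  have hRK : R ≤ K ⟨p, hp⟩ := fun x hx =>
    hred ⟨p, hp⟩ x (hR.1 hx) ((coprime_of_piNum_ne hp hR.2.1).coprime_dvd_left
      (Subgroup.orderOf_dvd_natCard R hx))
  haveI hRn : (R.subgroupOf C).Normal := Carter.normal_of_isPiHall (Hall.isPiHallOf_iff.1 hR).2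
  have hCR : C ≤ normalizer (R : Set X) := (normal_subgroupOf_iff_le_normalizer hR.1).1 hRn
  have hRL : K ⟨p, hp⟩ ⊓ L = R := by
    refine le_antisymm ?_ (le_inf hRK (hR.1.trans hCL))
    have hHall : Cfsg.IsPiHall π (R.subgroupOf L) := by
      refine ⟨?_, fun r hr hrπ hd => ?_⟩
      · intro r hr hd
        rw [Nat.card_congr (subgroupOfEquivOfLe (hR.1.trans hCL)).toEquiv] at hd
        exact hR.2.1 r hr hd
      · rw [← relIndex, ← relIndex_mul_relIndex R C L hR.1 hCL] at hd
        rcases hr.dvd_mul.1 hd with h | h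
        · exact hR.2.2 r hr hrπ h
        · obtain ⟨k, hk⟩ := IsPGroup.iff_card.1 hNp
          have e := (C.subgroupOf L).card_mul_index
          rw [Nat.card_congr (subgroupOfEquivOfLe hCL).toEquiv] at e
          have hdvd : C.relIndex L ∣ Nat.card N := by
            refine Nat.dvd_of_mul_dvd_mul_left (Nat.card_pos (α := C)) ?_
            rw [relIndex, e, hL, sup_comm]
            exact Cores.card_sup_dvd_mul C N
          have h' := h.trans hdvd
          rw [hk] at h'
          exact hrπ ((Nat.prime_dvd_prime_iff_eq hr hp).1 (hr.dvd_of_dvd_pow h'))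
    have h1 := Hall.eq_of_le_of_isPiHall hHall (K := (K ⟨p, hp⟩ ⊓ L).subgroupOf L) (by
      rw [Nat.card_congr (subgroupOfEquivOfLe inf_le_right).toEquiv]
      intro r hr hd
      exact (SysNorm.isPiHall hK ⟨p, hp⟩).1 r hr (hd.trans (card_dvd_of_le inf_le_left)))
      (fun x hx => ⟨hRK hx, hCL (hR.1 hx)⟩)
    intro x hx
    have : (⟨x, hx.2⟩ : L) ∈ R.subgroupOf L := h1 ▸ hx
    exact this
  -- the Sylow `p`-subgroup of `C`
  obtain ⟨S⟩ : Nonempty (Sylow p C) := inferInstance
  set P := (S : Subgroup C).map C.subtype with hP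
  have hPC : P ≤ C := map_subtype_le _
  have hPR : C ≤ P ⊔ R := by
    rw [← subgroupOf_eq_top]
    refine Cores.eq_top_of_forall_sylow_le _ fun q hq' => ?_
    haveI : Fact q.Prime := ⟨hq'⟩
    by_cases hqp : q = p
    · subst hqp
      exact ⟨S, fun x hx => mem_sup_left (T := R) ⟨x, hx, rfl⟩⟩
    · obtain ⟨Q⟩ : Nonempty (Sylow q C) := inferInstance
      refine ⟨Q, fun x hx => mem_sup_right (S := P) (mem_hallOf_of_coprime hC.1 hR x.2 ?_)⟩
      obtain ⟨i, hi⟩ := IsPGroup.iff_orderOf.1 Q.isPGroup' ⟨x, hx⟩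
      rw [Subgroup.orderOf_mk, ← orderOf_coe] at hi
      show (orderOf (x : X)).Coprime p
      rw [hi]
      exact ((Nat.coprime_primes hq' hp).2 hqp).pow_left i
  have hPcR : P ≤ centralizer (R : Set X) := by
    refine nil_le_centralizer hC.1 hPC hR.1 ?_
    obtain ⟨i, hi⟩ := IsPGroup.iff_card.1 (S.isPGroup'.map C.subtype)
    rw [← hP] at hi
    rw [hi]
    exact ((coprime_of_piNum_ne hp hR.2.1).symm).pow_left i
  -- fixed points of `R` in `N` lie in `C`
  set N0 := N ⊓ centralizer (R : Set X) with hN0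
  have hN0C : N0 ≤ C := by
    set Q := P ⊔ N0 with hQdef
    have hN0n : P ≤ normalizer (N0 : Set X) := le_normalizer_iff.2 fun g hg x hx =>
      ⟨hNn.conj_mem x hx.1 g, (centralizer (R : Set X)).mul_mem
        ((centralizer (R : Set X)).mul_mem (hPcR hg) hx.2)
        ((centralizer (R : Set X)).inv_mem (hPcR hg))⟩
    have hQset := Subgroup.coe_mul_of_left_le_normalizer_right P N0 hN0n
    rw [← hQdef] at hQset
    have hQp : IsPGroup p Q := by
      obtain ⟨i, hi⟩ := IsPGroup.iff_card.1 (S.isPGroup'.map C.subtype)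
      obtain ⟨j, hj⟩ := IsPGroup.iff_card.1 (hNp.to_le (inf_le_left : N0 ≤ N))
      have e := card_mul_set_mul_card_inf P N0
      rw [← hQset, ← hP] at *
      rw [hi, hj, ← pow_add] at e
      have hd : Nat.card Q ∣ p ^ (i + j) := ⟨_, e.symm⟩
      obtain ⟨k, -, hk⟩ := (Nat.dvd_prime_pow hp).1 hd
      exact IsPGroup.of_card hk
    haveI : Group.IsNilpotent Q := hQp.isNilpotent
    by_cases htop : P.subgroupOf Q = ⊤
    · exact (le_sup_right : N0 ≤ Q).trans ((subgroupOf_eq_top.1 htop).trans hPC)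
    · exfalso
      obtain ⟨x, hx, hxP⟩ := SetLike.exists_of_lt
        (normalizerCondition_of_isNilpotent (P.subgroupOf Q) (lt_top_iff_ne_top.2 htop))
      apply hxP
      have hxcR : (x : X) ∈ centralizer (R : Set X) :=
        (sup_le hPcR inf_le_right : Q ≤ centralizer (R : Set X)) x.2
      have hxC : (x : X) ∈ C := by
        rw [← hC.2, mem_normalizer_iff_map_conj_eq]
        refine eq_of_le_of_card_ge ?_ (card_map_of_injective (MulAut.conj (x : X)).injective).ge
        rw [map_le_iff_le_comap]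
        refine hPR.trans (sup_le (fun y hy => ?_) (fun y hy => ?_))
        · have hyQ : y ∈ Q := mem_sup_left hy
          exact hPC ((mem_normalizer_iff.1 hx ⟨y, hyQ⟩).1 hy)
        · show (x : X) * y * (x : X)⁻¹ ∈ C
          rw [← mem_centralizer_iff.1 hxcR y hy, mul_inv_cancel_right]
          exact hR.1 hy
      obtain ⟨k, hk⟩ := IsPGroup.iff_orderOf.1 hQp x
      have hS' : (⟨x, hxC⟩ : C) ∈ (S : Subgroup C) := by
        haveI := Sylow.unique_of_normal S inferInstance
        obtain ⟨T, hT⟩ := (IsPGroup.of_card (n := k) (by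
          rw [Nat.card_zpowers, Subgroup.orderOf_mk, orderOf_coe, hk]) :
            IsPGroup p (zpowers (⟨x, hxC⟩ : C))).exists_le_sylow
        rw [Subsingleton.elim S T]
        exact hT (mem_zpowers _)
      exact ⟨_, hS', rfl⟩
  intro d hd
  have hdL : d ∈ L := hq hd
  have hdR : d ∈ normalizer (R : Set X) := by
    rw [← hRL]
    refine Subgroup.inf_normalizer_le_normalizer_inf ⟨(mem_iInf.1 hd) _, le_normalizer hdL⟩
  have hdL' : d ∈ ((N ⊔ C : Subgroup X) : Set X) := hdL
  rw [normal_mul] at hdL'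
  obtain ⟨m, hm, c, hc, rfl⟩ := hdL'
  have hmR : m ∈ normalizer (R : Set X) :=
    ((normalizer (R : Set X)).mul_mem_cancel_right (hCR hc)).1 hdR
  refine C.mul_mem (hN0C ⟨hm, mem_centralizer_iff.2 fun y hy => ?_⟩) hc
  have hmem : m * y * m⁻¹ * y⁻¹ ∈ N ⊓ R := by
    refine ⟨?_, R.mul_mem ((mem_normalizer_iff.1 hmR y).1 hy) (R.inv_mem hy)⟩
    rw [mul_assoc, mul_assoc, ← mul_assoc y]
    exact N.mul_mem hm (hNn.conj_mem _ (N.inv_mem hm) y)
  have hcop : (Nat.card N).Coprime (Nat.card R) := by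
    obtain ⟨k, hk⟩ := IsPGroup.iff_card.1 hNp
    rw [hk]
    exact ((coprime_of_piNum_ne hp hR.2.1).symm).pow_left k
  rw [Subgroup.inf_eq_bot_of_coprime hcop, mem_bot, ← commutatorElement_def,
    commutatorElement_eq_one_iff_mul_comm] at hmem
  exact hmem.symm

theorem exists_reducesInto [Group.IsSolvable X] (C : Subgroup X) (hC : Group.IsNilpotent C) :
    ∃ K : Nat.Primes → Subgroup X, Cfsg.IsComplementSystem K ∧ ReducesInto K C := by
  have h : ∀ p : Nat.Primes, ∃ H : Subgroup X, Cfsg.IsPiHall {r : ℕ | r ≠ p} H ∧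
      ∀ x ∈ C, (orderOf x).Coprime (p : ℕ) → x ∈ H := by
    intro p
    obtain ⟨R, hR⟩ := Hall.exists_isPiHallOf {r : ℕ | r ≠ p} C
    obtain ⟨H, hH, hle⟩ := Hall.exists_isPiHall_ge (S := R) hR.2.1
    exact ⟨H, hH, fun x hx hxp => hle (mem_hallOf_of_coprime hC hR hx hxp)⟩
  choose K hK hred using h
  refine ⟨K, fun p => ?_, hred⟩
  haveI : Fact (p : ℕ).Prime := ⟨p.2⟩
  have h1 : (K p).index = (p : ℕ) ^ (K p).index.primeFactorsList.length :=
    Nat.eq_prime_pow_of_unique_prime_dvd FiniteIndex.index_ne_zero fun {r} hr hd => by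
      by_contra hne
      exact (hK p).2 r hr hne hd
  have h2 : (Nat.card X).factorization (p : ℕ) = (K p).index.primeFactorsList.length := by
    conv_lhs => rw [← (K p).card_mul_index]
    rw [Nat.factorization_mul Nat.card_pos.ne' FiniteIndex.index_ne_zero, Finsupp.add_apply,
      Nat.factorization_eq_zero_of_not_dvd (fun hd => (hK p).1 p p.2 hd rfl), zero_add]
    conv_lhs => rw [h1]
    rw [Nat.factorization_pow_self p.2]
  rw [h2]; exact h1

theorem systemNormalizer_conj (K : Nat.Primes → Subgroup X) (g : X) :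
    Cfsg.systemNormalizer (fun p => MulAut.conj g • K p) =
      MulAut.conj g • Cfsg.systemNormalizer K := by
  ext x
  rw [mem_conj_smul, SysNorm.mem_systemNormalizer_iff, SysNorm.mem_systemNormalizer_iff]
  refine forall_congr' fun p => ?_
  rw [conj_smul_mul _ (g⁻¹ * x), conj_smul_mul _ g⁻¹, map_inv, inv_smul_eq_iff]

end Cfsg.Agent.SolvStruct
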