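import Mathlib
import Cfsg.Agent.SolvStruct.CarterSystem
import Cfsg.Agent.SolvStruct.Hall

/-!
In a nilpotent-by-nilpotent group system normalizers are Carter subgroups.
-/

set_option autoImplicit false
set_option linter.style.haveILetI false

namespace Cfsg.Agent.SolvStruct

open Subgroup
open scoped Pointwise

universe u

variable {X : Type u} [Group X] [Finite X]

theorem carter_sup_eq_top [Group.IsSolvable X] (F : Subgroup X) [F.Normal]
    (hGF : Group.IsNilpotent (X ⧸ F)) {C : Subgroup X} (hC : Carter.IsCarter C) : C ⊔ F = ⊤ := by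
  haveI := hGF
  have h := Carter.isCarter_map (QuotientGroup.mk' F) (QuotientGroup.mk'_surjective F)
    (fun L _ A B hA hB => Carter.conj_carter hA hB) hC
  have htop : C.map (QuotientGroup.mk' F) = ⊤ := by
    by_contra hne
    exact (normalizerCondition_of_isNilpotent _ (lt_top_iff_ne_top.2 hne)).ne h.2.symm
  have := QuotientGroup.comap_map_mk' F C
  rw [htop, comap_top] at this
  rw [sup_comm, ← this]

theorem carter_le_systemNormalizer [Group.IsSolvable X] (F : Subgroup X) [F.Normal]
    (hF : Group.IsNilpotent F) (hGF : Group.IsNilpotent (X ⧸ F)) {C : Subgroup X}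
    (hC : Carter.IsCarter C) {K : Nat.Primes → Subgroup X} (hK : Cfsg.IsComplementSystem K)
    (hred : ReducesInto K C) : C ≤ Cfsg.systemNormalizer K := by
  refine le_iInf fun p => ?_
  haveI : Fact (p : ℕ).Prime := ⟨p.2⟩
  set π := {r : ℕ | r ≠ p} with hπ
  haveI hCnil : Group.IsNilpotent C := hC.1
  haveI := hF
  obtain ⟨R, hR⟩ := Hall.exists_isPiHallOf π C
  obtain ⟨S, hS⟩ := Hall.exists_isPiHallOf π F
  have hRK : R ≤ K p := fun x hx =>
    hred p x (hR.1 hx) ((coprime_of_piNum_ne p.2 hR.2.1).coprime_dvd_left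
      (Subgroup.orderOf_dvd_natCard R hx))
  have hCR : C ≤ normalizer (R : Set X) := (normal_subgroupOf_iff_le_normalizer hR.1).1
    (Carter.normal_of_isPiHall (Hall.isPiHallOf_iff.1 hR).2)
  haveI : S.Normal := by
    refine normalizer_eq_top_iff.1 (top_unique fun g _ => mem_normalizer_iff_map_conj_eq.2 ?_)
    refine eq_of_le_of_card_ge ?_ (card_map_of_injective (MulAut.conj g).injective).ge
    rintro _ ⟨x, hx, rfl⟩
    refine mem_hallOf_of_coprime hF hS ((inferInstance : F.Normal).conj_mem x (hS.1 hx) g) ?_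
    show (orderOf (g * x * g⁻¹)).Coprime (p : ℕ)
    have : orderOf (g * x * g⁻¹) = orderOf x :=
      orderOf_injective (MulAut.conj g).toMonoidHom (MulAut.conj g).injective x
    rw [this]
    exact (coprime_of_piNum_ne p.2 hS.2.1).coprime_dvd_left (Subgroup.orderOf_dvd_natCard S hx)
  have hSK : S ≤ K p := normal_le_hall (SysNorm.isPiHall hK p) hS.2.1
  set J := R ⊔ S with hJ
  have hJπ : Cfsg.IsPiHall π J := by
    refine ⟨fun r hr hd => (Hall.PiNum.mul hR.2.1 hS.2.1) r hr (hd.trans (Cores.card_sup_dvd_mul R S)),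
      fun r hr hrπ hd => ?_⟩
    rw [← relIndex_mul_index (sup_le_sup_right hR.1 S : J ≤ C ⊔ S)] at hd
    rcases hr.dvd_mul.1 hd with h | h
    · -- inside `C ⊔ S`
      refine hR.2.2 r hr hrπ (h.trans ?_)
      have e1 : J.relIndex (C ⊔ S) * Nat.card J = Nat.card ↥(C ⊔ S) := by
        have e := (J.subgroupOf (C ⊔ S)).index_mul_card
        rwa [Nat.card_congr (subgroupOfEquivOfLe (sup_le_sup_right hR.1 S)).toEquiv] at e
      have e2 : R.relIndex C * Nat.card R = Nat.card C := by
        have e := (R.subgroupOf C).index_mul_card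
        rwa [Nat.card_congr (subgroupOfEquivOfLe hR.1).toEquiv] at e
      have hinf : C ⊓ S = R ⊓ S := le_antisymm
        (fun x hx => ⟨mem_hallOf_of_coprime hC.1 hR hx.1
          ((coprime_of_piNum_ne p.2 hS.2.1).coprime_dvd_left (Subgroup.orderOf_dvd_natCard S hx.2)),
          hx.2⟩) (inf_le_inf_right S hR.1)
      have f1 := card_mul_set_mul_card_inf C S
      have f2 := card_mul_set_mul_card_inf R S
      rw [← mul_normal, hinf] at f1
      rw [← mul_normal] at f2
      change Nat.card ↥(C ⊔ S) * _ = _ at f1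
      change Nat.card ↥J * _ = _ at f2
      refine ⟨1, ?_⟩
      rw [mul_one]
      refine Nat.eq_of_mul_eq_mul_right (Nat.mul_pos (Nat.card_pos (α := R)) (Nat.card_pos (α := S))) ?_
      calc R.relIndex C * (Nat.card R * Nat.card S) = Nat.card C * Nat.card S := by
            rw [← mul_assoc, e2]
        _ = J.relIndex (C ⊔ S) * (Nat.card J * Nat.card ↥(R ⊓ S)) := by
            rw [← f1, ← e1, mul_assoc]
        _ = J.relIndex (C ⊔ S) * (Nat.card R * Nat.card S) := by rw [f2]
    · -- `F` covers the rest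
      refine hS.2.2 r hr hrπ (h.trans ?_)
      have htop := carter_sup_eq_top F hGF hC
      have htop' : (C ⊔ S) ⊔ F = ⊤ := top_unique (htop.ge.trans (sup_le_sup_right le_sup_left F))
      have h1 : Nat.card X * Nat.card S ∣ Nat.card ↥(C ⊔ S) * Nat.card F := by
        have e := card_mul_set_mul_card_inf (C ⊔ S) F
        rw [← mul_normal, htop', coe_top, Nat.card_congr (Equiv.Set.univ X)] at e
        rw [← e]
        exact mul_dvd_mul_left _ (card_dvd_of_le (le_inf le_sup_right hS.1))
      have e := (C ⊔ S).card_mul_index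
      rw [← e, mul_assoc] at h1
      have h2 := Nat.dvd_of_mul_dvd_mul_left Nat.card_pos h1
      have e2 : S.relIndex F * Nat.card S = Nat.card F := by
        have e := (S.subgroupOf F).index_mul_card
        rwa [Nat.card_congr (subgroupOfEquivOfLe hS.1).toEquiv] at e
      rw [← e2] at h2
      exact Nat.dvd_of_mul_dvd_mul_right Nat.card_pos h2
  have hJK : J = K p := Hall.eq_of_le_of_isPiHall hJπ (SysNorm.isPiHall hK p).1 (sup_le hRK hSK)
  rw [← hJK]
  refine le_normalizer_iff.2 fun c hc x hx => ?_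
  have hx' : x ∈ ((R ⊔ S : Subgroup X) : Set X) := hx
  rw [mul_normal] at hx'
  obtain ⟨r, hr, s, hs, rfl⟩ := hx'
  have : c * (r * s) * c⁻¹ = c * r * c⁻¹ * (c * s * c⁻¹) := by group
  show c * (r * s) * c⁻¹ ∈ J
  rw [this]
  exact mul_mem (mem_sup_left (le_normalizer_iff.1 hCR c hc r hr))
    (mem_sup_right ((inferInstance : S.Normal).conj_mem s hs c))

end Cfsg.Agent.SolvStruct
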