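import Mathlib
import Cfsg.Agent.SolvStruct.Products
import Cfsg.Agent.SolvStruct.Nilpotent
import Cfsg.Agent.Cores.Fitting
import Cfsg.Agent.S0572

/-!
Itô: a product of two abelian groups has a nontrivial normal subgroup inside one of the factors.
-/

set_option autoImplicit false
set_option linter.style.haveILetI false

namespace Cfsg.Agent.SolvStruct

open Subgroup
open scoped Pointwise commutatorElement

variable {G : Type*} [Group G] [Finite G]

theorem inf_centralizer_eq_bot_of_ito {A B : Subgroup G} [IsMulCommutative A] [IsMulCommutative B]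
    (hAB : ∀ g : G, ∃ a ∈ A, ∃ b ∈ B, g = a * b)
    (hAno : ∀ N : Subgroup G, N.Normal → N ≤ A → N = ⊥)
    (hBno : ∀ N : Subgroup G, N.Normal → N ≤ B → N = ⊥) :
    A ⊓ B = ⊥ ∧ A ⊓ centralizer (commutator G : Set G) = ⊥ := by
  have hcA : ∀ a ∈ A, ∀ a' ∈ A, a * a' = a' * a := fun a ha a' ha' =>
    congrArg Subtype.val (IsMulCommutative.is_comm.comm (⟨a, ha⟩ : A) ⟨a', ha'⟩)
  have hcB : ∀ b ∈ B, ∀ b' ∈ B, b * b' = b' * b := fun b hb b' hb' =>
    congrArg Subtype.val (IsMulCommutative.is_comm.comm (⟨b, hb⟩ : B) ⟨b', hb'⟩)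
  have hcenA : ∀ x ∈ A, (∀ y ∈ B, x * y = y * x) → x ∈ center G := by
    intro x hx h
    refine mem_center_iff.2 fun g => ?_
    obtain ⟨a, ha, b, hb, rfl⟩ := hAB g
    rw [mul_assoc, ← h b hb, ← mul_assoc, ← hcA x hx a ha, mul_assoc]
  have hcenB : ∀ x ∈ B, (∀ y ∈ A, x * y = y * x) → x ∈ center G := by
    intro x hx h
    refine mem_center_iff.2 fun g => ?_
    obtain ⟨a, ha, b, hb, rfl⟩ := hAB g
    rw [mul_assoc, ← hcB x hx b hb, ← mul_assoc, ← h a ha, mul_assoc]
  have hAc : ∀ x ∈ A, x ∈ center G → x = 1 := fun x hx hc => by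
    have hn : (zpowers x).Normal := ⟨fun y hy g => by
      have : y ∈ center G := (zpowers_le.2 hc) hy
      rwa [mem_center_iff.1 this g, mul_inv_cancel_right]⟩
    exact zpowers_eq_bot.1 (hAno _ hn (zpowers_le.2 hx))
  have hBc : ∀ x ∈ B, x ∈ center G → x = 1 := fun x hx hc => by
    have hn : (zpowers x).Normal := ⟨fun y hy g => by
      have : y ∈ center G := (zpowers_le.2 hc) hy
      rwa [mem_center_iff.1 this g, mul_inv_cancel_right]⟩
    exact zpowers_eq_bot.1 (hBno _ hn (zpowers_le.2 hx))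
  refine ⟨(eq_bot_iff_forall _).2 fun x hx =>
    hAc x hx.1 (hcenA x hx.1 fun y hy => hcB x hx.2 y hy), ?_⟩
  -- `A` is self-centralizing
  have hCA : centralizer (A : Set G) ≤ A := by
    intro x hx
    obtain ⟨a, ha, b, hb, rfl⟩ := hAB x
    have hbA : ∀ y ∈ A, b * y = y * b := by
      intro y hy
      have h1 : y * (a * b) = a * b * y := mem_centralizer_iff.1 hx y hy
      rw [← mul_assoc, hcA y hy a ha, mul_assoc, mul_assoc] at h1
      exact (mul_left_cancel h1).symm
    rw [hBc b hb (hcenB b hb hbA), mul_one]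
    exact ha
  set M := A ⊔ commutator G with hM
  haveI hMn : M.Normal := Subgroup.Normal.of_commutator_le G le_sup_right
  have hD : centralizer (M : Set G) ⊓ M = ⊥ :=
    hAno _ inferInstance (inf_le_left.trans ((centralizer_le (show (A : Set G) ⊆ M from fun x hx => mem_sup_left hx)).trans hCA))
  refine le_bot_iff.1 fun x hx => hD.le ⟨?_, mem_sup_left hx.1⟩
  refine mem_centralizer_iff.2 fun y hy => ?_
  have : M ≤ centralizer ({x} : Set G) := by
    refine sup_le (fun a ha => ?_) (fun a ha => ?_)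
    · exact mem_centralizer_singleton_iff.2 (hcA a ha x hx.1)
    · exact mem_centralizer_singleton_iff.2 (mem_centralizer_iff.1 hx.2 a ha)
  exact mem_centralizer_singleton_iff.1 (this hy)

theorem exists_normal_le_factor [Nontrivial G] (A B : Subgroup G) [IsMulCommutative A]
    [IsMulCommutative B] (hAB : ∀ g : G, ∃ a ∈ A, ∃ b ∈ B, g = a * b) :
    ∃ N : Subgroup G, N.Normal ∧ N ≠ ⊥ ∧ (N ≤ A ∨ N ≤ B) := by
  by_contra hcon
  push Not at hcon
  have hAno : ∀ N : Subgroup G, N.Normal → N ≤ A → N = ⊥ := fun N hN h => by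
    by_contra hne; exact (hcon N hN hne).1 h
  have hBno : ∀ N : Subgroup G, N.Normal → N ≤ B → N = ⊥ := fun N hN h => by
    by_contra hne; exact (hcon N hN hne).2 h
  obtain ⟨hinf, hTA⟩ := inf_centralizer_eq_bot_of_ito hAB hAno hBno
  obtain ⟨-, hTB⟩ := inf_centralizer_eq_bot_of_ito (A := B) (B := A)
    (factorization_symm hAB) hBno hAno
  have hab : ∀ x ∈ commutator G, ∀ y ∈ commutator G, x * y = y * x := by
    intro x hx y hy
    have h2 := S0572.result A B hAB
    rw [derivedSeries_succ, derivedSeries_one] at h2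
    exact commutatorElement_eq_one_iff_mul_comm.1
      (mem_bot.1 (h2 ▸ commutator_mem_commutator hx hy))
  have hG'ne : commutator G ≠ ⊥ := by
    intro h
    have htop : centralizer (commutator G : Set G) = ⊤ := by
      refine eq_top_iff.2 fun g _ => mem_centralizer_iff.2 fun y hy => ?_
      rw [h, SetLike.mem_coe, mem_bot] at hy
      simp [hy]
    rw [htop, inf_top_eq] at hTA hTB
    obtain ⟨g, hg⟩ := exists_ne (1 : G)
    obtain ⟨a, ha, b, hb, rfl⟩ := hAB g
    rw [hTA, mem_bot] at ha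
    rw [hTB, mem_bot] at hb
    exact hg (by rw [ha, hb, one_mul])
  obtain ⟨p, hp, hpd⟩ := Nat.exists_prime_and_dvd ((commutator G).one_lt_card_iff_ne_bot.2 hG'ne).ne'
  haveI : Fact p.Prime := ⟨hp⟩
  obtain ⟨S⟩ : Nonempty (Sylow p ↥(commutator G)) := inferInstance
  haveI : (S : Subgroup ↥(commutator G)).Normal := ⟨fun x hx g => by
    have : g * x = x * g := Subtype.ext (hab g g.2 x x.2)
    rwa [this, mul_inv_cancel_right]⟩
  haveI := S.characteristic_of_normal inferInstance
  set P := (S : Subgroup ↥(commutator G)).map (commutator G).subtype with hP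
  haveI hPn : P.Normal := ConjAct.normal_of_characteristic_of_normal
  have hPle : P ≤ commutator G := map_subtype_le _
  have hPp : IsPGroup p P := S.isPGroup'.map _
  have hPne : P ≠ ⊥ := by
    rw [hP, Ne, map_eq_bot_iff_of_injective _ (commutator G).subtype_injective]
    exact S.ne_bot_of_dvd_card hpd
  have hAG' : A ⊓ commutator G = ⊥ :=
    le_bot_iff.1 (le_trans (inf_le_inf_left A fun y hy =>
      mem_centralizer_iff.2 fun z hz => hab z hz y hy) hTA.le)
  have hAP : A ⊓ P = ⊥ := le_bot_iff.1 (hAG' ▸ inf_le_inf_left A hPle)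
  set B2 := B ⊓ (A ⊔ P) with hB2
  have hset : (A : Set G) * (B2 : Set G) = (A : Set G) * (P : Set G) := by
    rw [← mul_normal A P]
    refine Set.Subset.antisymm ?_ fun x hx => ?_
    · rintro _ ⟨a, ha, b, hb, rfl⟩
      exact mul_mem (mem_sup_left ha) hb.2
    · obtain ⟨a, ha, b, hb, rfl⟩ := hAB x
      exact ⟨a, ha, b, ⟨hb, ((A ⊔ P).mul_mem_cancel_left (mem_sup_left ha)).1 hx⟩, rfl⟩
  have hcard : Nat.card B2 = Nat.card P := by
    have e1 := card_mul_set_mul_card_inf A B2
    have e2 := card_mul_set_mul_card_inf A P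
    rw [hset, le_bot_iff.1 (hinf ▸ inf_le_inf_left A inf_le_left : A ⊓ B2 ≤ ⊥), card_bot] at e1
    rw [hAP, card_bot] at e2
    exact Nat.eq_of_mul_eq_mul_left Nat.card_pos (e1.symm.trans e2)
  have hB2p : IsPGroup p B2 := by
    obtain ⟨i, hi⟩ := IsPGroup.iff_card.1 hPp
    exact IsPGroup.of_card (hcard.trans hi)
  set R := P ⊔ B2 with hR
  have hRp : IsPGroup p R := hPp.to_sup_of_normal_left hB2p
  haveI : Group.IsNilpotent R := hRp.isNilpotent
  obtain ⟨z, hz, hz1⟩ := SetLike.exists_of_lt (bot_lt_iff_ne_bot.2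
    (nilpotent_inf_center_ne_bot (G := R) (P.subgroupOf R) (by
      rw [Ne, subgroupOf_eq_bot, disjoint_iff, inf_eq_left.2 le_sup_left]
      exact hPne)))
  have hn0 : (z : G) ∈ P := hz.1
  have hn0G : (z : G) ∈ commutator G := hPle hn0
  have hn0R : ∀ y ∈ R, y * (z : G) = (z : G) * y := fun y hy =>
    congrArg Subtype.val (mem_center_iff.1 hz.2 ⟨y, hy⟩)
  have halpha : ∀ n : G, ∃ a ∈ A, a * n ∈ B := by
    intro n
    obtain ⟨a, ha, b, hb, rfl⟩ := hAB n
    exact ⟨a⁻¹, A.inv_mem ha, by rwa [inv_mul_cancel_left]⟩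
  obtain ⟨a0, ha0, hb0⟩ := halpha z
  -- the cocycle identity
  have hident : ∀ (n : G), n ∈ commutator G → ∀ a ∈ A, a * n ∈ B →
      (z : G)⁻¹ * (a⁻¹ * (z : G) * a) = n⁻¹ * (a0⁻¹ * n * a0) := by
    intro n hn a ha hb
    have h1 : a0 * (z : G) * (a * n) = a * n * (a0 * (z : G)) :=
      congrArg Subtype.val (IsMulCommutative.is_comm.comm (⟨_, hb0⟩ : B) ⟨_, hb⟩)
    have hc : a0 * a = a * a0 :=
      congrArg Subtype.val (IsMulCommutative.is_comm.comm (⟨_, ha0⟩ : A) ⟨_, ha⟩)
    have hu : a⁻¹ * (z : G) * a ∈ commutator G := by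
      simpa using (inferInstance : (commutator G).Normal).conj_mem _ hn0G a⁻¹
    have h2 : (a⁻¹ * (z : G) * a) * n = (a0⁻¹ * n * a0) * (z : G) := by
      have := congrArg (fun t => (a0 * a)⁻¹ * t) h1
      simp only [← mul_assoc] at this
      calc a⁻¹ * (z : G) * a * n = (a0 * a)⁻¹ * (a0 * (z : G) * a * n) := by group
        _ = (a * a0)⁻¹ * (a * n * a0 * (z : G)) := by
          rw [← hc]; simpa [mul_assoc] using this
        _ = a0⁻¹ * n * a0 * (z : G) := by group
    have hv : a0⁻¹ * n * a0 ∈ commutator G := by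
      simpa using (inferInstance : (commutator G).Normal).conj_mem _ hn a0⁻¹
    rw [inv_mul_eq_iff_eq_mul, ← mul_assoc]
    rw [hab _ hu _ hn, hab _ hv _ hn0G] at h2
    calc a⁻¹ * (z : G) * a = n⁻¹ * ((z : G) * (a0⁻¹ * n * a0)) := by rw [← h2]; group
      _ = (z : G) * n⁻¹ * (a0⁻¹ * n * a0) := by
        rw [← mul_assoc, hab _ (inv_mem hn) _ hn0G]
  set C := commutator G ⊓ centralizer ({a0} : Set G) with hC
  have hPC : P ≤ C := by
    intro n hn
    obtain ⟨a, ha, hb⟩ := halpha n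
    have haR : a ∈ R := by
      have hb2 : a * n ∈ B2 := ⟨hb, mul_mem (mem_sup_left ha) (mem_sup_right hn)⟩
      have := mul_mem (mem_sup_right hb2 : a * n ∈ R) (inv_mem (mem_sup_left hn : n ∈ R))
      rwa [mul_inv_cancel_right] at this
    have e := hident n (hPle hn) a ha hb
    rw [mul_assoc a⁻¹, ← hn0R a haR, inv_mul_cancel_left, inv_mul_cancel, eq_comm,
      inv_mul_eq_one] at e
    refine ⟨hPle hn, mem_centralizer_singleton_iff.2 ?_⟩
    conv_rhs => rw [e, ← mul_assoc, ← mul_assoc, mul_inv_cancel, one_mul]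
  have hall : commutator G ≤ C := by
    rw [← subgroupOf_eq_top]
    refine Cores.eq_top_of_forall_sylow_le _ fun q hq => ?_
    haveI : Fact q.Prime := ⟨hq⟩
    by_cases hqp : q = p
    · subst hqp
      exact ⟨S, fun x hx => hPC ⟨x, hx, rfl⟩⟩
    · obtain ⟨Q⟩ : Nonempty (Sylow q ↥(commutator G)) := inferInstance
      refine ⟨Q, fun n hn => ⟨n.2, mem_centralizer_singleton_iff.2 ?_⟩⟩
      obtain ⟨k, hk⟩ := IsPGroup.iff_orderOf.1 Q.isPGroup' ⟨n, hn⟩
      rw [Subgroup.orderOf_mk, ← orderOf_coe] at hk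
      obtain ⟨a, ha, hb⟩ := halpha (n : G)
      have e := hident n n.2 a ha hb
      set x := (z : G)⁻¹ * (a⁻¹ * (z : G) * a) with hx
      have hxP : x ∈ P := mul_mem (inv_mem hn0) (by simpa using hPn.conj_mem _ hn0 a⁻¹)
      obtain ⟨l, hl⟩ := IsPGroup.iff_orderOf.1 hPp ⟨x, hxP⟩
      rw [Subgroup.orderOf_mk] at hl
      have hxq : orderOf x ∣ orderOf (n : G) := by
        rw [orderOf_dvd_iff_pow_eq_one, e]
        have hv : a0⁻¹ * (n : G) * a0 ∈ commutator G := by
          simpa using (inferInstance : (commutator G).Normal).conj_mem _ n.2 a0⁻¹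
        rw [Commute.mul_pow (hab _ (inv_mem n.2) _ hv), inv_pow, pow_orderOf_eq_one, inv_one,
          one_mul]
        have := conj_pow (i := orderOf (n : G)) (a := a0⁻¹) (b := (n : G))
        rw [inv_inv] at this
        rw [this, pow_orderOf_eq_one, mul_one, inv_mul_cancel]
      have hx1 : x = 1 := by
        rw [← orderOf_eq_one_iff]
        refine Nat.eq_one_of_dvd_coprimes ?_ dvd_rfl hxq
        rw [hl, hk]
        exact ((Nat.coprime_primes hp hq).2 (Ne.symm hqp)).pow _ _
      rw [hx1, eq_comm, inv_mul_eq_one] at e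
      show (n : G) * a0 = a0 * (n : G)
      conv_rhs => rw [e, ← mul_assoc, ← mul_assoc, mul_inv_cancel, one_mul]
  have ha0T : a0 ∈ A ⊓ centralizer (commutator G : Set G) :=
    ⟨ha0, mem_centralizer_iff.2 fun y hy => mem_centralizer_singleton_iff.1 (hall hy).2⟩
  rw [hTA, mem_bot] at ha0T
  rw [ha0T, one_mul] at hb0
  have : (z : G) ∈ B ⊓ centralizer (commutator G : Set G) :=
    ⟨hb0, mem_centralizer_iff.2 fun y hy => hab y hy _ hn0G⟩
  rw [hTB, mem_bot] at this
  exact hz1 (mem_bot.2 (Subtype.ext this))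

end Cfsg.Agent.SolvStruct
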