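import Mathlib
import Cfsg.Agent.SolvStruct.ItoFactor
import Cfsg.Agent.Supersolv.Basic

/-!
A product of two cyclic groups is supersolvable.
-/

set_option autoImplicit false
set_option linter.style.haveILetI false

namespace Cfsg.Agent.SolvStruct

open Subgroup

universe u

theorem supersolvable_cyclic_product_aux : ∀ n : ℕ, ∀ (G : Type u) [Group G] [Finite G],
    Nat.card G = n → ∀ A B : Subgroup G, IsCyclic A → IsCyclic B →
    (∀ g : G, ∃ a ∈ A, ∃ b ∈ B, g = a * b) → Cfsg.IsSupersolvable G := by
  intro n
  induction n using Nat.strong_induction_on with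
  | _ n ih =>
  intro G _ _ hn A B hA hB hAB
  rcases subsingleton_or_nontrivial G with h | h
  · exact Supersolv.supersolvable_of_subsingleton
  haveI := hA
  haveI := hB
  obtain ⟨N, hNn, hNne, hle⟩ := exists_normal_le_factor A B hAB
  haveI := hNn
  haveI : IsCyclic N := by
    rcases hle with h | h
    · exact isCyclic_of_injective (Subgroup.inclusion h) (inclusion_injective h)
    · exact isCyclic_of_injective (Subgroup.inclusion h) (inclusion_injective h)
  refine Supersolv.supersolvable_of_cyclic_normal N (ih (Nat.card (G ⧸ N)) ?_ _ rfl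
    (A.map (QuotientGroup.mk' N)) (B.map (QuotientGroup.mk' N))
    (isCyclic_of_surjective _ ((QuotientGroup.mk' N).subgroupMap_surjective A))
    (isCyclic_of_surjective _ ((QuotientGroup.mk' N).subgroupMap_surjective B)) fun x => ?_)
  · rw [← hn, Subgroup.card_eq_card_quotient_mul_card_subgroup N]
    exact lt_mul_of_one_lt_right Nat.card_pos (N.one_lt_card_iff_ne_bot.2 hNne)
  · obtain ⟨g, rfl⟩ := QuotientGroup.mk'_surjective N x
    obtain ⟨a, ha, b, hb, rfl⟩ := hAB g
    exact ⟨_, mem_map_of_mem _ ha, _, mem_map_of_mem _ hb, map_mul _ _ _⟩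

end Cfsg.Agent.SolvStruct
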