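import Mathlib
import Cfsg.Agent.SolvStruct.KegelWielandt
import Cfsg.Agent.Cores.Fitting
import Cfsg.Agent.S0572

/-!
The derived length of a product of an abelian group and a group of class two.
-/

set_option autoImplicit false
set_option linter.style.haveILetI false

namespace Cfsg.Agent.SolvStruct

open Subgroup
open scoped Pointwise commutatorElement

universe u

/-- If `X = A X'` with `A` abelian and `X'` is the normal closure of `Z`, which is centralized by
`C`, then `Z` does not lie in the derived group of `C`. -/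
theorem not_le_commutator_of_sup_eq_top {X : Type u} [Group X] [Finite X] [Group.IsSolvable X]
    (A C Z : Subgroup X) (hA : ∀ a ∈ A, ∀ b ∈ A, a * b = b * a) (hgen : A ⊔ commutator X = ⊤)
    (hZ : ∀ z ∈ Z, ∀ c ∈ C, z * c = c * z) (hcl : commutator X = normalClosure (Z : Set X))
    (hne : Z ≠ ⊥) : ¬ Z ≤ ⁅C, C⁆ := by
  intro hle
  set K := commutator X with hK
  haveI hKn : K.Normal := by rw [hK]; infer_instance
  have hZK : Z ≤ K := fun x hx => hcl ▸ le_normalClosure hx
  have hKne : K ≠ ⊥ := fun e => hne (le_bot_iff.1 (e ▸ hZK))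
  obtain ⟨M, ⟨hMn, hKM, hMK⟩, hmax⟩ :=
    wellFounded_gt.has_min {M : Subgroup X | M.Normal ∧ ⁅K, K⁆ ≤ M ∧ M < K}
      ⟨⁅K, K⁆, inferInstance, le_rfl, Group.IsSolvable.commutator_lt_of_ne_bot hKne⟩
  haveI := hMn
  obtain ⟨z, hzZ, hzM⟩ := SetLike.not_le_iff_exists.1
    (fun h : Z ≤ M => hMK.ne (le_antisymm hMK.le (hcl ▸ normalClosure_le_normal h)))
  set f := QuotientGroup.mk' M with hf
  have hKab : ∀ x ∈ K, ∀ y ∈ K, f x * f y = f y * f x := by
    intro x hx y hy
    rw [← commutatorElement_eq_one_iff_mul_comm, ← map_commutatorElement]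
    exact (QuotientGroup.eq_one_iff _).2 (hKM (commutator_mem_commutator hx hy))
  have hdec : ∀ g : X, ∃ a ∈ A, ∃ k ∈ K, g = a * k := by
    intro g
    have hg : g ∈ ((A ⊔ K : Subgroup X) : Set X) := by rw [hgen]; trivial
    rw [mul_normal] at hg
    obtain ⟨a, ha, k, hk, rfl⟩ := hg
    exact ⟨a, ha, k, hk, rfl⟩
  have hAK : ∀ c ∈ C, ∀ a ∈ A, ∀ k ∈ K, c = a * k → ∀ y ∈ K, f a * f y = f y * f a := by
    intro c hc a ha k hk e y hy
    set E := (centralizer ({f a} : Set (X ⧸ M))).comap f ⊓ K with hE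
    have hEn : E.Normal := by
      refine ⟨fun x hx g => ⟨?_, hKn.conj_mem x hx.2 g⟩⟩
      obtain ⟨a', ha', k', hk', rfl⟩ := hdec g
      refine mem_comap.2 (mem_centralizer_singleton_iff.2 ?_)
      have h1 : f (a' * k' * x * (a' * k')⁻¹) = f a' * f x * (f a')⁻¹ := by
        simp only [map_mul, map_inv, mul_inv_rev]
        calc f a' * f k' * f x * ((f k')⁻¹ * (f a')⁻¹)
            = f a' * (f k' * f x * (f k')⁻¹) * (f a')⁻¹ := by group
          _ = f a' * f x * (f a')⁻¹ := by rw [hKab k' hk' x hx.2, mul_inv_cancel_right]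
      have h2 : Commute (f a) (f a') := (map_mul f a a').symm.trans ((congrArg f (hA a ha a' ha')).trans
        (map_mul f a' a))
      have h3 : Commute (f a) (f x) :=
        (mem_centralizer_singleton_iff.1 (mem_comap.1 hx.1)).symm
      rw [h1]
      exact ((h2.mul_right h3).mul_right h2.inv_right).eq.symm
    have hME : M ≤ E := fun x hx => ⟨by
      refine mem_comap.2 (mem_centralizer_singleton_iff.2 ?_)
      rw [show f x = 1 from (QuotientGroup.eq_one_iff x).2 hx, one_mul, mul_one], hMK.le hx⟩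
    have hzE : z ∈ E := by
      refine ⟨?_, hZK hzZ⟩
      refine mem_comap.2 (mem_centralizer_singleton_iff.2 ?_)
      have h1 : Commute (f z) (f c) := by
        show f z * f c = f c * f z
        rw [← map_mul, ← map_mul, hZ z hzZ c hc]
      have h2 : Commute (f z) (f k) := hKab z (hZK hzZ) k hk
      have e' : f a = f c * (f k)⁻¹ := by rw [e, map_mul, mul_inv_cancel_right]
      rw [e']
      exact (h1.mul_right h2.inv_right).eq
    have hEK : E = K := by
      by_contra hne'
      refine hmax E ⟨hEn, hKM.trans hME, lt_of_le_of_ne inf_le_right hne'⟩ ?_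
      exact lt_of_le_of_ne hME fun e => hzM (e ▸ hzE)
    have hy' : y ∈ E := hEK.symm ▸ hy
    exact (mem_centralizer_singleton_iff.1 (mem_comap.1 hy'.1)).symm
  refine hzM ((?_ : ⁅C, C⁆ ≤ M) (hle hzZ))
  refine commutator_le.2 fun x hx y hy => ?_
  rw [← QuotientGroup.eq_one_iff]
  show f ⁅x, y⁆ = 1
  rw [map_commutatorElement, commutatorElement_eq_one_iff_mul_comm]
  obtain ⟨a, ha, k, hk, rfl⟩ := hdec x
  obtain ⟨a', ha', k', hk', rfl⟩ := hdec y
  have h1 : Commute (f a) (f a') := (map_mul f a a').symm.trans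
    ((congrArg f (hA a ha a' ha')).trans (map_mul f a' a))
  have h2 : Commute (f a) (f k') := hAK _ hx a ha k hk rfl k' hk'
  have h3 : Commute (f k) (f a') := (hAK _ hy a' ha' k' hk' rfl k hk).symm
  have h4 : Commute (f k) (f k') := hKab k hk k' hk'
  rw [map_mul, map_mul]
  exact ((h1.mul_right h2).mul_left (h3.mul_right h4)).eq

theorem length_primeFactorsList_lt {d D : ℕ} (hD : D ≠ 0) (h : d ∣ D) (hne : d ≠ D) :
    d.primeFactorsList.length < D.primeFactorsList.length := by
  obtain ⟨k, rfl⟩ := h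
  obtain ⟨hd0, hk0⟩ := mul_ne_zero_iff.1 hD
  rw [(Nat.perm_primeFactorsList_mul hd0 hk0).length_eq, List.length_append]
  have : 0 < k.primeFactorsList.length := by
    rw [List.length_pos_iff_ne_nil, Ne, Nat.primeFactorsList_eq_nil]
    rintro (rfl | rfl)
    · exact hk0 rfl
    · exact hne (mul_one d).symm
  omega

theorem derivedSeries_product_class_two_aux : ∀ n : ℕ, ∀ (G : Type u) [Group G] [Finite G]
    (A B : Subgroup G), (∀ a ∈ A, ∀ a' ∈ A, a * a' = a' * a) → ⁅⁅B, B⁆, B⁆ = ⊥ →
    (∀ g : G, ∃ a ∈ A, ∃ b ∈ B, g = a * b) →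
    (Nat.card ↥⁅B, B⁆).primeFactorsList.length = n → derivedSeries G (2 * (1 + n)) = ⊥ := by
  intro n
  induction n using Nat.strong_induction_on with
  | _ n ih =>
  intro G _ _ A B hA hB hAB hn
  haveI : IsMulCommutative A := ⟨⟨fun a b => Subtype.ext (hA a a.2 b b.2)⟩⟩
  by_cases hZ1 : ⁅B, B⁆ = ⊥
  · haveI : IsMulCommutative B := ⟨⟨fun a b => Subtype.ext
      (commutatorElement_eq_one_iff_mul_comm.1 (mem_bot.1 (hZ1 ▸ commutator_mem_commutator a.2 b.2)))⟩⟩
    refine le_bot_iff.1 ?_
    rw [← S0572.result A B hAB]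
    exact derivedSeries_antitone G (by omega)
  set Z := ⁅B, B⁆ with hZdef
  have hZc : ∀ z ∈ Z, ∀ b ∈ B, z * b = b * z := fun z hz b hb =>
    commutatorElement_eq_one_iff_mul_comm.1 (mem_bot.1 (hB ▸ commutator_mem_commutator hz hb))
  have hZB : Z ≤ B := commutator_le.2 fun x hx y hy =>
    B.mul_mem (B.mul_mem (B.mul_mem hx hy) (B.inv_mem hx)) (B.inv_mem hy)
  haveI : Group.IsNilpotent A := by
    refine Cores.isNilpotent_of_commutator_commutator_eq_bot (le_bot_iff.1 ?_)
    refine commutator_le.2 fun x hx y hy => ?_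
    have hxA : x ∈ A := (commutator_le.2 fun a ha b hb =>
      A.mul_mem (A.mul_mem (A.mul_mem ha hb) (A.inv_mem ha)) (A.inv_mem hb)) hx
    exact mem_bot.2 (commutatorElement_eq_one_iff_mul_comm.2 (hA x hxA y hy))
  have hBnil : Group.IsNilpotent B := Cores.isNilpotent_of_commutator_commutator_eq_bot hB
  haveI : Group.IsSolvable G := isSolvable_of_nilpotent_product (H := A) inferInstance hBnil hAB
  set Y := normalClosure (Z : Set G) with hY
  set f := QuotientGroup.mk' Y with hf
  have hfs : Function.Surjective f := QuotientGroup.mk'_surjective Y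
  have hG2 : derivedSeries G 2 ≤ Y := by
    haveI : IsMulCommutative (A.map f) := ⟨⟨by
      rintro ⟨_, a, ha, rfl⟩ ⟨_, a', ha', rfl⟩
      exact Subtype.ext (by show f a * f a' = f a' * f a; rw [← map_mul, hA a ha a' ha', map_mul])⟩⟩
    haveI : IsMulCommutative (B.map f) := ⟨⟨by
      rintro ⟨_, a, ha, rfl⟩ ⟨_, a', ha', rfl⟩
      refine Subtype.ext ?_
      show f a * f a' = f a' * f a
      rw [← commutatorElement_eq_one_iff_mul_comm, ← map_commutatorElement]
      exact (QuotientGroup.eq_one_iff _).2 (le_normalClosure (commutator_mem_commutator ha ha'))⟩⟩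
    have h2 := S0572.result (A.map f) (B.map f) fun x => by
      obtain ⟨g, rfl⟩ := hfs x
      obtain ⟨a, ha, b, hb, rfl⟩ := hAB g
      exact ⟨_, mem_map_of_mem f ha, _, mem_map_of_mem f hb, map_mul _ _ _⟩
    rw [← map_derivedSeries_eq hfs, Subgroup.map_eq_bot_iff, QuotientGroup.ker_mk'] at h2
    exact h2
  set H := A ⊔ Y with hH
  set A1 := A.subgroupOf H
  set C := (B ⊓ H).subgroupOf H with hC
  set Z1 := Z.subgroupOf H with hZ1def
  have hZY : Z ≤ Y := le_normalClosure
  have hZH : Z ≤ H := hZY.trans le_sup_right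
  have hA1 : ∀ a ∈ A1, ∀ b ∈ A1, a * b = b * a := fun a ha b hb => Subtype.ext (hA _ ha _ hb)
  have hfacH : ∀ g : H, ∃ a ∈ A1, ∃ b ∈ C, g = a * b := by
    intro g
    obtain ⟨a, ha, b, hb, e⟩ := hAB g
    have hbH : b ∈ H := (H.mul_mem_cancel_left (mem_sup_left ha)).1 (e ▸ g.2)
    exact ⟨⟨a, mem_sup_left ha⟩, ha, ⟨b, hbH⟩, ⟨hb, hbH⟩, Subtype.ext e⟩
  -- commutator subgroups in `H`
  have hmap : ⁅C, C⁆.map H.subtype ≤ Z := by
    rw [map_commutator, hZdef]
    have h : C.map H.subtype ≤ B := by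
      rintro _ ⟨x, hx, rfl⟩; exact hx.1
    exact commutator_mono h h
  have hnot : ¬ Z1 ≤ ⁅C, C⁆ := by
    intro hle
    have hclos : ∀ g : G, ∀ z ∈ Z, ∃ a ∈ A, g * z * g⁻¹ = a * z * a⁻¹ := by
      intro g z hz
      obtain ⟨a, ha, b, hb, rfl⟩ := hAB g
      refine ⟨a, ha, ?_⟩
      calc a * b * z * (a * b)⁻¹ = a * (b * z) * b⁻¹ * a⁻¹ := by group
        _ = a * z * a⁻¹ := by rw [← hZc z hz b hb]; group
    have hYle : Y.subgroupOf H ≤ normalClosure (Z1 : Set H) := by
      have key : Y ≤ (normalClosure (Z1 : Set H)).map H.subtype := by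
        rw [hY, normalClosure, closure_le]
        intro x hx
        obtain ⟨z, hz, hzx⟩ := Group.mem_conjugatesOfSet_iff.1 hx
        obtain ⟨g, rfl⟩ := isConj_iff.1 hzx
        obtain ⟨a, ha, e⟩ := hclos g z hz
        exact ⟨⟨a, mem_sup_left ha⟩ * ⟨z, hZH hz⟩ * ⟨a, mem_sup_left ha⟩⁻¹,
          normalClosure_normal.conj_mem _ (le_normalClosure (show (⟨z, hZH hz⟩ : H) ∈ Z1 from hz)) _,
          e.symm⟩
      intro x hx
      obtain ⟨y, hy, e⟩ := key hx
      rwa [← H.subtype_injective e]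
    haveI : (Y.subgroupOf H).Normal := inferInstance
    have hK : commutator H ≤ Y.subgroupOf H := by
      rw [commutator_def]
      refine commutator_le.2 fun x _ y _ => ?_
      rw [mem_subgroupOf, ← QuotientGroup.eq_one_iff]
      show f ((⁅x, y⁆ : H) : G) = 1
      rw [show ((⁅x, y⁆ : H) : G) = ⁅(x : G), (y : G)⁆ from map_commutatorElement H.subtype x y,
        map_commutatorElement, commutatorElement_eq_one_iff_mul_comm]
      have hd : ∀ w : H, ∃ a ∈ A, f (w : G) = f a := by
        intro w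
        have hw : (w : G) ∈ ((A ⊔ Y : Subgroup G) : Set G) := w.2
        rw [mul_normal] at hw
        obtain ⟨a, ha, y', hy', e⟩ := hw
        refine ⟨a, ha, ?_⟩
        rw [← e, map_mul, show f y' = 1 from (QuotientGroup.eq_one_iff y').2 hy', mul_one]
      obtain ⟨a, ha, ea⟩ := hd x
      obtain ⟨a', ha', ea'⟩ := hd y
      rw [ea, ea', ← map_mul, ← map_mul, hA a ha a' ha']
    have hZ1K : Z1 ≤ commutator H :=
      hle.trans (by rw [commutator_def]; exact commutator_mono le_top le_top)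
    have hKeq : commutator H = normalClosure (Z1 : Set H) :=
      le_antisymm (hK.trans hYle) (normalClosure_le_normal hZ1K)
    refine not_le_commutator_of_sup_eq_top A1 C Z1 hA1 ?_ (fun z hz c hc =>
      Subtype.ext (hZc _ hz _ hc.1)) hKeq ?_ hle
    · rw [hKeq]
      refine top_unique fun g _ => ?_
      have hg : (g : G) ∈ ((A ⊔ Y : Subgroup G) : Set G) := g.2
      rw [mul_normal] at hg
      obtain ⟨a, ha, y, hy, e⟩ := hg
      have : g = ⟨a, mem_sup_left ha⟩ * ⟨y, mem_sup_right hy⟩ := Subtype.ext e.symm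
      rw [this]
      exact mul_mem (mem_sup_left (show (⟨a, mem_sup_left ha⟩ : H) ∈ A1 from ha))
        (mem_sup_right (hYle (show (⟨y, mem_sup_right hy⟩ : H) ∈ Y.subgroupOf H from hy)))
    · intro h
      exact hZ1 (le_bot_iff.1 ((disjoint_iff.1 (subgroupOf_eq_bot.1 h)) ▸ le_inf le_rfl hZH))
  have hcard : Nat.card ↥⁅C, C⁆ = Nat.card ↥(⁅C, C⁆.map H.subtype) :=
    (card_map_of_injective H.subtype_injective).symm
  have hlt : (Nat.card ↥⁅C, C⁆).primeFactorsList.length < n := by
    rw [← hn, hcard]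
    refine length_primeFactorsList_lt Nat.card_pos.ne' (card_dvd_of_le hmap) fun e => hnot ?_
    have heq : ⁅C, C⁆.map H.subtype = Z := eq_of_le_of_card_ge hmap e.ge
    intro x hx
    have : (x : G) ∈ ⁅C, C⁆.map H.subtype := heq.symm ▸ hx
    obtain ⟨y, hy, ey⟩ := this
    rwa [← H.subtype_injective ey]
  have hCc : ⁅⁅C, C⁆, C⁆ = ⊥ := by
    refine le_bot_iff.1 (commutator_le.2 fun x hx y hy => ?_)
    have hxZ : (x : G) ∈ Z := hmap ⟨x, hx, rfl⟩
    exact mem_bot.2 (commutatorElement_eq_one_iff_mul_comm.2 (Subtype.ext (hZc _ hxZ _ hy.1)))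
  have hind := ih _ hlt H A1 C hA1 hCc hfacH rfl
  set m := (Nat.card ↥⁅C, C⁆).primeFactorsList.length
  have hstep : ∀ j, derivedSeries G (2 + j) ≤ (derivedSeries H j).map H.subtype := by
    intro j
    induction j with
    | zero =>
      rw [derivedSeries_zero, ← MonoidHom.range_eq_map, range_subtype]
      exact hG2.trans le_sup_right
    | succ j ihj =>
      rw [← add_assoc, derivedSeries_succ, derivedSeries_succ, map_commutator]
      exact commutator_mono ihj ihj
  refine le_bot_iff.1 ((derivedSeries_antitone G (?_ : 2 + 2 * (1 + m) ≤ 2 * (1 + n))).trans ?_)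
  · omega
  · refine (hstep _).trans (le_of_eq ?_)
    rw [hind, Subgroup.map_bot]

end Cfsg.Agent.SolvStruct
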