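import Mathlib
import Cfsg.Agent.SolvStruct.Products
import Cfsg.Agent.SolvStruct.PrimeIndex
import Cfsg.Agent.SolvStruct.NilHall
import Cfsg.Agent.Supersolv.Basic
import Cfsg.Agent.Supersolv.Props

/-!
Supersolvable Hall subgroups of the same order are conjugate.
-/

set_option autoImplicit false
set_option linter.style.haveILetI false

namespace Cfsg.Agent.SolvStruct

open Subgroup
open scoped Pointwise

universe u

theorem supersolvable_hall_conjugate_aux : ∀ n : ℕ, ∀ (G : Type u) [Group G] [Finite G],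
    Nat.card G = n → ∀ H K : Subgroup G, Cfsg.IsSupersolvable H → Cfsg.IsSupersolvable K →
    Nat.card H = Nat.card K → (Nat.card H).Coprime H.index →
    ∃ x : G, MulAut.conj x • H = K := by
  intro n
  induction n using Nat.strong_induction_on with
  | _ n ih =>
  intro G _ _ hn H K hH hK hcard hHall
  by_cases h1 : Nat.card H = 1
  · exact ⟨1, by
      rw [map_one, one_smul, eq_bot_of_card_eq H h1, eq_bot_of_card_eq K (hcard ▸ h1)]⟩
  have hKidx : K.index = H.index := Nat.eq_of_mul_eq_mul_left (Nat.card_pos (α := K)) (by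
    rw [K.card_mul_index, ← hcard, H.card_mul_index])
  have hKHall : (Nat.card K).Coprime K.index := by rw [hKidx, ← hcard]; exact hHall
  have hne : (Nat.card H).primeFactors.Nonempty :=
    Nat.nonempty_primeFactors.2 (Nat.one_lt_iff_ne_zero_and_ne_one.2 ⟨Nat.card_pos.ne', h1⟩)
  set p := (Nat.card H).primeFactors.max' hne with hp'
  have hpm := Finset.max'_mem _ hne
  rw [← hp', Nat.mem_primeFactors] at hpm
  obtain ⟨hp, hpd, -⟩ := hpm
  haveI : Fact p.Prime := ⟨hp⟩
  have hmax : ∀ q : ℕ, q.Prime → q ∣ Nat.card H → q ≤ p := fun q hq hqd =>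
    Finset.le_max' _ _ (Nat.mem_primeFactors.2 ⟨hq, hqd, Nat.card_pos.ne'⟩)
  have hnorm : ∀ L : Subgroup G, Cfsg.IsSupersolvable L → (Nat.card L).Coprime L.index →
      p ∣ Nat.card L → (∀ q : ℕ, q.Prime → q ∣ Nat.card L → q ≤ p) →
      ∃ P : Sylow p G, (P : Subgroup G) ≤ L ∧ L ≤ normalizer ((P : Subgroup G) : Set G) := by
    intro L hL hLH hd hm
    obtain ⟨P, hP⟩ := hall_exists_sylow_le hLH hd
    refine ⟨P, hP, ?_⟩
    rw [← normal_subgroupOf_iff_le_normalizer hP]
    exact sylow_max_normal (fun M hM => Supersolv.maximal_index hL M hM) (P.subtype hP) hm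
  obtain ⟨P, hPH, hHP⟩ := hnorm H hH hHall hpd hmax
  obtain ⟨Q, hQK, hKQ⟩ := hnorm K hK hKHall (hcard ▸ hpd) (hcard ▸ hmax)
  obtain ⟨g, hg⟩ := MulAction.exists_smul_eq G P Q
  set H' := MulAut.conj g • H with hH'
  have hgQ : MulAut.conj g • (P : Subgroup G) = Q := congrArg Sylow.toSubgroup hg
  set N := normalizer ((Q : Subgroup G) : Set G) with hN
  have hQH' : (Q : Subgroup G) ≤ H' := hgQ ▸ conj_smul_mono hPH g
  have hH'N : H' ≤ N := by
    refine le_normalizer_iff.2 fun a ha x hx => ?_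
    rw [← hgQ, mem_conj_smul] at hx ⊢
    have := le_normalizer_iff.1 hHP _ (mem_conj_smul.1 ha) _ hx
    simpa [mul_assoc] using this
  have hQN : (Q : Subgroup G) ≤ N := Subgroup.le_normalizer
  let QN := (Q : Subgroup G).subgroupOf N
  haveI : QN.Normal := (normal_subgroupOf_iff_le_normalizer hQN).2 le_rfl
  let f := QuotientGroup.mk' QN
  have hH'ss : Cfsg.IsSupersolvable H' :=
    Supersolv.supersolvable_of_equiv hH (equivSMul (MulAut.conj g) H)
  have hQne : (Q : Subgroup G) ≠ ⊥ := Q.ne_bot_of_dvd_card (hpd.trans H.card_subgroup_dvd_card)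
  have hlt : Nat.card (N ⧸ QN) < n := by
    refine lt_of_lt_of_le ?_ (hn ▸ Nat.le_of_dvd Nat.card_pos N.card_subgroup_dvd_card)
    rw [Subgroup.card_eq_card_quotient_mul_card_subgroup QN]
    refine lt_mul_of_one_lt_right Nat.card_pos ?_
    rw [Nat.card_congr (subgroupOfEquivOfLe hQN).toEquiv]
    exact (Q : Subgroup G).one_lt_card_iff_ne_bot.2 hQne
  have himg : ∀ L : Subgroup G, L ≤ N → (Q : Subgroup G) ≤ L →
      Nat.card ↥((L.subgroupOf N).map f) * Nat.card (Q : Subgroup G) = Nat.card L := by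
    intro L hLN hQL
    have e := Cores.card_comap_mk_eq QN ((L.subgroupOf N).map f)
    rw [show f = QuotientGroup.mk' QN from rfl, QuotientGroup.comap_map_mk',
      sup_eq_right.2 (show QN ≤ L.subgroupOf N from fun x hx => hQL hx),
      Nat.card_congr (subgroupOfEquivOfLe hLN).toEquiv,
      Nat.card_congr (subgroupOfEquivOfLe hQN).toEquiv] at e
    rw [mul_comm]; exact e.symm
  have hcard' : Nat.card H' = Nat.card H := card_conj_smul H g
  have hceq : Nat.card ↥((H'.subgroupOf N).map f) = Nat.card ↥((K.subgroupOf N).map f) :=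
    Nat.eq_of_mul_eq_mul_right (Nat.card_pos (α := (Q : Subgroup G))) (by
      rw [himg H' hH'N hQH', himg K hKQ hQK, hcard', hcard])
  have hH'ss' : Cfsg.IsSupersolvable ((H'.subgroupOf N).map f) :=
    Supersolv.supersolvable_of_surjective
      (Supersolv.supersolvable_of_equiv hH'ss (subgroupOfEquivOfLe hH'N).symm) _
      (f.subgroupMap_surjective _)
  have hKss' : Cfsg.IsSupersolvable ((K.subgroupOf N).map f) :=
    Supersolv.supersolvable_of_surjective
      (Supersolv.supersolvable_of_equiv hK (subgroupOfEquivOfLe hKQ).symm) _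
      (f.subgroupMap_surjective _)
  obtain ⟨xb, hx⟩ := ih _ hlt _ rfl _ _ hH'ss' hKss' hceq (by
    refine Nat.Coprime.coprime_dvd_left (card_map_dvd _ _) ?_
    rw [Nat.card_congr (subgroupOfEquivOfLe hH'N).toEquiv, hcard']
    refine hHall.coprime_dvd_right ((index_map_dvd _ (QuotientGroup.mk'_surjective QN)).trans ?_)
    have : H.index = H'.index := Nat.eq_of_mul_eq_mul_left (Nat.card_pos (α := H)) (by
      rw [H.card_mul_index, ← hcard', H'.card_mul_index])
    rw [this, ← relIndex_mul_index hH'N]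
    exact dvd_mul_right _ _)
  obtain ⟨x, rfl⟩ := QuotientGroup.mk'_surjective QN xb
  refine ⟨(x : G) * g, ?_⟩
  rw [conj_smul_mul, ← hH']
  have hmem : ∀ (L : Subgroup G) (_ : (Q : Subgroup G) ≤ L) (z : N),
      f z ∈ (L.subgroupOf N).map f ↔ (z : G) ∈ L := by
    intro L hQL z
    refine ⟨fun hz => ?_, fun hz => mem_map_of_mem f hz⟩
    obtain ⟨w, hw, hwe⟩ := hz
    obtain ⟨y, hy, hye⟩ := (QuotientGroup.mk'_eq_mk' QN).1 hwe
    rw [← hye]
    exact L.mul_mem hw (hQL hy)
  refine Subgroup.eq_of_le_of_card_ge ?_ (by rw [card_conj_smul, hcard', hcard])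
  intro z hz
  rw [mem_conj_smul] at hz
  have hzN : z ∈ N := by
    have := N.mul_mem (N.mul_mem x.2 (hH'N hz)) (N.inv_mem x.2)
    simpa [mul_assoc] using this
  refine (hmem K hQK ⟨z, hzN⟩).1 ?_
  rw [← hx, mem_conj_smul]
  have := (hmem H' hQH' (x⁻¹ * ⟨z, hzN⟩ * x)).2 hz
  rwa [map_mul, map_mul, map_inv] at this

end Cfsg.Agent.SolvStruct
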